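import Mathlib
import Cfsg.Agent.H737.RootSim
import Cfsg.Agent.H737.RootComp
import Cfsg.Agent.S5045
import Cfsg.Agent.S5047
set_option linter.all false

-- part: H733/RootNd
section
/-!
# Root involutions: the braid lemma and generalities on the graph `𝓔(D)`
-/

set_option autoImplicit false

namespace Cfsg.Agent.H733

open Cfsg Cfsg.Agent.H737

variable {G : Type*} [Group G]

/-- Noncommuting members of `D` whose product has order dividing 6 have product of order
dividing 3. -/
theorem cube_eq_one {D : Set G} (h : IsRootInvolutionSet D) {p q : G} (hp : p ∈ D) (hq : q ∈ D)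
    (hc : ¬ Commute p q) (h6 : (p * q) ^ 6 = 1) : (p * q) ^ 3 = 1 := by
  rcases opp_trichotomy h hp hq with h1 | h1 | h1
  · exact absurd h1 hc
  · have h2 : orderOf (p * q) ∣ 2 * 3 := orderOf_dvd_of_pow_eq_one (by simpa using h6)
    exact orderOf_dvd_iff_pow_eq_one.1
      (Nat.Coprime.dvd_of_dvd_mul_left h1.2.coprime_two_right h2)
  · have h2 : orderOf (p * q) ∣ 6 := orderOf_dvd_of_pow_eq_one h6
    rw [h1.1] at h2
    exact absurd h2 (by decide)

/-- The braid relation from order 3. -/
theorem braid_of_three {a x : G} (ha : a * a = 1) (hx : x * x = 1) (h3 : (a * x) ^ 3 = 1) :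
    x * (a * x) = a * (x * a) := by
  have h1 : a * (x * (a * (x * (a * x)))) = 1 := by
    rw [← h3]; simp only [pow_succ, pow_zero, one_mul, mul_assoc]
  calc x * (a * x) = (a * (x * a))⁻¹ * (a * (x * (a * (x * (a * x))))) := by group
    _ = (a * (x * a))⁻¹ := by rw [h1, mul_one]
    _ = a * (x * a) := by
      rw [mul_inv_rev, mul_inv_rev, inv_of_sq ha, inv_of_sq hx, mul_assoc]


theorem comm_of_eq {p q : G} (h : p * q = q * p) (z : G) : p * (q * z) = q * (p * z) := by
  rw [← mul_assoc, h, mul_assoc]

theorem reassoc2 {p q r s : G} (h : p * q = r * s) (z : G) : p * (q * z) = r * (s * z) := by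
  rw [← mul_assoc, h, mul_assoc]

theorem reassoc1 {p q : G} (h : p * q = 1) (z : G) : p * (q * z) = z := by
  rw [← mul_assoc, h, one_mul]

/-- **Braid lemma on a line.** Let `{x, t, xt}` be a line, `a ∈ D` with `(ax)^3 = 1`, `a ≠ x`, and
`a t` of order 4.  With `m = a t a` one has `x m x = t m`. -/
theorem braid_line {D : Set G} (h : IsRootInvolutionSet D) {a x t : G} (ha : a ∈ D) (hx : x ∈ D)
    (ht : t ∈ D) (hax : Opp a x) (h3 : (a * x) ^ 3 = 1) (hxt : Commute x t) (hxtD : x * t ∈ D)
    (h4 : orderOf (a * t) = 4) : x * (a * (t * (a * x))) = t * (a * (t * a)) := by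
  have haa := sq_of_mem h ha
  have hxx := sq_of_mem h hx
  have htt := sq_of_mem h ht
  have hbr := braid_of_three haa hxx h3
  -- `m = a t a`, `n = x m x`
  obtain ⟨m, hm⟩ : ∃ m, m = a * (t * a) := ⟨_, rfl⟩
  obtain ⟨n, hn⟩ : ∃ n, n = x * (m * x) := ⟨_, rfl⟩
  have hbr' : ∀ z, x * (a * (x * z)) = a * (x * (a * z)) := by
    intro z
    have := congrArg (· * z) hbr
    simpa only [mul_assoc] using this
  have hta : t * a = a * m := by rw [hm, reassoc1 haa]
  have hma : m * a = a * t := by rw [hm, mul_assoc, mul_assoc, haa, mul_one]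
  have hmm : m * m = 1 := by
    rw [hm]
    simp only [mul_assoc, reassoc1 haa, reassoc1 htt, haa]
  have hmx : m * x = x * n := by rw [hn, reassoc1 hxx]
  have hnx : n * x = x * m := by rw [hn, mul_assoc, mul_assoc, hxx, mul_one]
  have hnn : n * n = 1 := by
    rw [hn]
    simp only [mul_assoc, reassoc1 hxx, reassoc1 hmm, hxx]
  have htx : t * x = x * t := hxt.eq.symm
  have hna : n * a = a * n := by
    rw [hn, hm]
    simp only [mul_assoc]
    -- n a = x a t a x a = x a t (x a x) = x a x t a x = a x a t a x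
    rw [← hbr, reassoc2 htx, hbr']
  have hcm : Commute t m := by
    have := commute_of_order_four htt haa (by rw [orderOf_mul_comm' htt haa]; exact h4)
    rw [hm]
    simpa only [mul_assoc] using this
  have hmt : m * t = t * m := hcm.eq.symm
  have hnt : n * t = t * n := by
    rw [hn]
    simp only [mul_assoc]
    rw [← htx, reassoc2 hmt, ← reassoc2 htx]
  have hnm : n * m = m * n := by
    -- conjugate `n t = t n` by `a`
    have h1 : n * m = a * (n * t) * a := by
      rw [hm]
      simp only [← mul_assoc, hna]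
    have h2 : m * n = a * (t * n) * a := by
      rw [hm]
      simp only [mul_assoc, hna]
    rw [h1, h2, hnt]
  -- the cube
  have hcube : (a * (x * t)) ^ 3 = t * (m * n) := by
    have e1 : (a * (x * t)) ^ 3 = a * (x * (t * (a * (x * (t * (a * (x * t))))))) := by
      simp only [pow_succ, pow_zero, one_mul, mul_assoc]
    rw [e1]
    simp only [reassoc2 hta, reassoc2 htx, reassoc2 hmx, hbr', reassoc1 haa, reassoc1 hxx,
      reassoc2 hmt, hnt]
  have hff : t * (m * n) * (t * (m * n)) = 1 := by
    simp only [mul_assoc, reassoc2 hnt, reassoc2 hmt, reassoc2 hnm, reassoc1 htt, reassoc1 hmm, hnn]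
  have hxtt : x * (x * t) ∈ D := by rw [reassoc1 hxx]; exact ht
  have hnc : ¬ Commute a (x * t) :=
    not_commute_of_opp h hx hxtD ((Commute.refl x).mul_right hxt) hxtt ha hax
  have h6 : (a * (x * t)) ^ 6 = 1 := by
    rw [show (6 : ℕ) = 3 * 2 from rfl, pow_mul, hcube, pow_two, hff]
  have h7 := cube_eq_one h ha hxtD hnc h6
  rw [hcube] at h7
  have h8 : n = t * m := by
    calc n = (t * m) * (t * m) * n := by
            have : (t * m) * (t * m) = 1 := by
              simp only [mul_assoc, reassoc2 hmt, reassoc1 htt, hmm]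
            rw [this, one_mul]
      _ = t * m * (t * (m * n)) := by group
      _ = t * m := by rw [h7, mul_one]
  rw [← hm, ← h8, hn, hm]
  simp only [mul_assoc]

/-- **The order 3 lemma.** Let `{a, b, ab}` be a line, `x ∈ D` with `bx` of order 4 and `ax` of
order 3.  Then `t = (bx)^2` has `at` of order 4 and `(at)^2 = b`. -/
theorem sq_eq_partner {D : Set G} (h : IsRootInvolutionSet D) {a b x t : G} (ha : a ∈ D)
    (hb : b ∈ D) (hx : x ∈ D) (hab : Commute a b) (habD : a * b ∈ D) (h4 : orderOf (b * x) = 4)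
    (hax : Opp a x) (h3 : (a * x) ^ 3 = 1) (htdef : t = b * (x * (b * x))) :
    t ∈ D ∧ Commute b t ∧ Commute x t ∧ x * t ∈ D ∧ orderOf (a * t) = 4 ∧
      a * (t * (a * t)) = b := by
  have haa := sq_of_mem h ha
  have hbb := sq_of_mem h hb
  have hxx := sq_of_mem h hx
  have htD : t ∈ D := by
    have := mem_of_order_four h hb hx h4
    rw [htdef]
    simpa only [mul_assoc] using this
  have htt := sq_of_mem h htD
  have hbx : Commute b (x * b * x) := commute_of_order_four hbb hxx h4
  have hbt : Commute b t := by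
    rw [htdef]
    have : b * (x * (b * x)) = b * (x * b * x) := by group
    rw [this]
    exact (Commute.refl b).mul_right hbx
  have hxb4 : orderOf (x * b) = 4 := by rw [orderOf_mul_comm' hxx hbb]; exact h4
  have hxc : Commute x (b * x * b) := commute_of_order_four hxx hbb hxb4
  have hxt : Commute x t := by
    rw [htdef]
    have : b * (x * (b * x)) = (b * x * b) * x := by group
    rw [this]
    exact hxc.mul_right (Commute.refl x)
  have hxteq : x * t = b * x * b := by
    have : t = x * (b * x * b) := by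
      rw [hxc.eq, htdef]; group
    rw [this, reassoc1 hxx]
  have hxtD : x * t ∈ D := by rw [hxteq]; exact conj_mem' h hx hb
  have hnc : ¬ Commute a t := not_commute_of_opp h hx htD hxt hxtD ha hax
  have hno : ¬ Opp a t := by
    intro ho
    exact not_commute_of_opp h ha hb hab habD htD (Opp.symm' h ha htD ho) hbt.symm
  have hat4 := (order_four_of h ha htD hnc hno).1
  have hbl := braid_line h ha hx htD hax h3 hxt hxtD hat4
  obtain ⟨m, hm⟩ : ∃ m, m = a * (t * a) := ⟨_, rfl⟩
  have hmm : m * m = 1 := by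
    rw [hm]
    simp only [mul_assoc, reassoc1 haa, reassoc1 htt, haa]
  have hcm : Commute t m := by
    have := commute_of_order_four htt haa (by rw [orderOf_mul_comm' htt haa]; exact hat4)
    rw [hm]
    simpa only [mul_assoc] using this
  have hta : t * a = a * m := by rw [hm, reassoc1 haa]
  have hma : m * a = a * t := by rw [hm, mul_assoc, mul_assoc, haa, mul_one]
  obtain ⟨s, hs⟩ : ∃ s, s = t * m := ⟨_, rfl⟩
  have hss : s * s = 1 := by
    rw [hs]
    calc t * m * (t * m) = t * (m * t) * m := by group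
      _ = t * (t * m) * m := by rw [hcm.eq]
      _ = (t * t) * (m * m) := by group
      _ = 1 := by rw [htt, hmm, one_mul]
  have hxmx : x * (m * x) = s := by
    have h0 := hbl
    rw [← hm] at h0
    rw [hs, ← h0, hm]
    simp only [mul_assoc]
  have htx : t * x = x * t := hxt.eq.symm
  have hmx : m * x = x * s := by rw [← hxmx, reassoc1 hxx]
  have hsx : s * x = x * m := by rw [← hxmx, mul_assoc, mul_assoc, hxx, mul_one]
  have hsa : s * a = a * s := by
    rw [hs, mul_assoc, hma, ← mul_assoc, hta, mul_assoc, hcm.eq]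
  have hts : t * s = m := by rw [hs, reassoc1 htt]
  have hms : m * s = t := by rw [hs, hcm.eq, reassoc1 hmm]
  have hbs : Commute b s := by
    rw [hs, hm]
    exact hbt.mul_right (hab.symm.mul_right (hbt.mul_right hab.symm))
  have hxbx : b * x = x * (b * t) := by
    have : b * t = x * (b * x) := by rw [htdef, reassoc1 hbb]
    rw [this, reassoc1 hxx]
  -- the element `c = b s`
  obtain ⟨c, hc⟩ : ∃ c, c = b * s := ⟨_, rfl⟩
  have hcc : c * c = 1 := by
    rw [hc]
    calc b * s * (b * s) = b * (s * b) * s := by group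
      _ = b * (b * s) * s := by rw [hbs.eq]
      _ = (b * b) * (s * s) := by group
      _ = 1 := by rw [hbb, hss, one_mul]
  have hca : Commute c a := by
    rw [hc]; exact hab.symm.mul_left hsa
  have hcs : Commute c s := by rw [hc]; exact hbs.mul_left (Commute.refl s)
  have hcx : Commute c x := by
    show c * x = x * c
    rw [hc, mul_assoc, hsx, ← mul_assoc, hxbx, mul_assoc, mul_assoc, ← hts, reassoc1 htt]
  have hbsc : b = s * c := by
    rw [hc, hbs.eq, reassoc1 hss]
  have hcube : (x * (a * b)) ^ 3 = c := by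
    have e1 : x * (a * b) = (x * (a * s)) * c := by
      nth_rw 1 [hbsc]; simp only [mul_assoc]
    have e2 : Commute (x * (a * s)) c := (hcx.symm.mul_left (hca.symm.mul_left hcs.symm))
    rw [e1, e2.mul_pow]
    have e3 : c ^ 3 = c := by rw [pow_succ, pow_two, hcc, one_mul]
    have e4 : (x * (a * s)) ^ 3 = (x * a) ^ 3 := by
      have f1 : (x * (a * s)) ^ 3 = x * (a * (s * (x * (a * (s * (x * (a * s))))))) := by
        simp only [pow_succ, pow_zero, one_mul, mul_assoc]
      have f2 : (x * a) ^ 3 = x * (a * (x * (a * (x * a)))) := by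
        simp only [pow_succ, pow_zero, one_mul, mul_assoc]
      rw [f1, f2]
      simp only [reassoc2 hsx, reassoc2 hma, reassoc2 htx, reassoc2 hta, hts, hmm, mul_one]
    have e5 : (x * a) ^ 3 = 1 := by
      have : x * a = (a * x)⁻¹ := by rw [mul_inv_rev, inv_of_sq haa, inv_of_sq hxx]
      rw [this, inv_pow, h3, inv_one]
    rw [e4, e5, one_mul, e3]
  have haabD : a * (a * b) ∈ D := by rw [reassoc1 haa]; exact hb
  have hnc2 : ¬ Commute x (a * b) :=
    not_commute_of_opp h ha habD ((Commute.refl a).mul_right hab) haabD hx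
      (Opp.symm' h ha hx hax)
  have h6 : (x * (a * b)) ^ 6 = 1 := by
    rw [show (6 : ℕ) = 3 * 2 from rfl, pow_mul, hcube, pow_two, hcc]
  have h7 := cube_eq_one h hx habD hnc2 h6
  rw [hcube] at h7
  have hbseq : s = b := by
    rw [hbsc, h7, mul_one]
  refine ⟨htD, hbt, hxt, hxtD, hat4, ?_⟩
  rw [← hbseq, hs, hcm.eq, hm]
  simp only [mul_assoc]

end Cfsg.Agent.H733
end

-- part: H733/RootNd2
section
/-!
# Root involutions: a nondegenerate class

* `odd_connected`: in a class of root involutions with an opposite pair, `𝓕(D)` is connected.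
* `isRootInvolutionSet_restrict`: restriction to a subgroup generated by members.
* `partner_conj`: for opposite `x`, `d` every member of `X_d` is conjugate to `d` in `⟨X_d, x⟩`.
-/

set_option autoImplicit false

namespace Cfsg.Agent.H733

open Cfsg Cfsg.Agent.H737

variable {G : Type*} [Group G]

/-- In a class of root involutions with an opposite pair, the graph `𝓕(D)` is connected. -/
theorem odd_connected [Finite G] {D : Set G} (hcl : IsRootInvolutionClass D)
    (hex : ∃ a ∈ D, ∃ b ∈ D, Opp a b) : IsConnectedSet (OddAdj D) D := by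
  have h := hcl.1
  obtain ⟨p, hp, q, hq, hpq⟩ := hex
  -- no isolated vertices
  have hW : ∀ w ∈ D, ∃ c ∈ D, Opp c w := by
    intro w hw
    obtain ⟨g, hg⟩ := hcl.2.2 q hq w hw
    refine ⟨g * p * g⁻¹, h.conj_mem p hp g, ?_⟩
    rw [hg, opp_conj]; exact hpq
  have hWe : {w | IsIsolatedElem (OddAdj D) D w} = (∅ : Set G) := by
    ext w
    simp only [Set.mem_ofPred_eq, Set.mem_empty_iff_false, iff_false]
    intro hw
    rw [isolated_iff h] at hw
    obtain ⟨c, hc, hcw⟩ := hW w hw.1
    exact hw.2 c hc hcw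
  have hna : ∀ a ∈ D, ∃ a' ∈ elemComponentOf (OddAdj D) D a, a' ≠ a := by
    intro a ha
    obtain ⟨c, hc, hca⟩ := hW a ha
    refine ⟨c, ⟨hc, Relation.ReflTransGen.single ?_⟩, hca.1⟩
    exact oddAdj_symm h ⟨hc, ha, hca.1, hca.2⟩
  have hrs : ∀ x y : G, Relation.ReflTransGen (OddAdj D) x y →
      Relation.ReflTransGen (OddAdj D) y x := fun x y h1 => rtg_symm (fun _ _ h2 => oddAdj_symm h h2) h1
  have h5 := (S5045.result h).2.2.2.2.1
  rw [hWe, Subgroup.closure_empty] at h5
  intro a ha b hb
  -- conjugation by members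
  have hconj : ∀ d ∈ D, ∀ c ∈ D, Relation.ReflTransGen (OddAdj D) a c →
      Relation.ReflTransGen (OddAdj D) a (d * c * d⁻¹) := by
    intro d hd c hc hac
    by_cases hdc : Relation.ReflTransGen (OddAdj D) d c
    · have h6 : Relation.ReflTransGen (OddAdj D) d (d * c * d⁻¹) := by
        have h7 : Relation.ReflTransGen (OddAdj D) (d * d * d⁻¹) (d * c * d⁻¹) :=
          hdc.lift (fun z => d * z * d⁻¹) (fun x y hxy => oddAdj_conj h d hxy)
        rwa [mul_inv_cancel_right] at h7
      exact (hac.trans (hrs _ _ hdc)).trans h6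
    · have h6 : c * d * c⁻¹ * d⁻¹ ∈ (⊥ : Subgroup G) := by
        refine h5 c hc d hd (hna c hc) (hna d hd) ?_
        intro h7
        apply hdc
        have h8 : c ∈ elemComponentOf (OddAdj D) D c := ⟨hc, Relation.ReflTransGen.refl⟩
        rw [h7] at h8
        exact h8.2
      rw [Subgroup.mem_bot] at h6
      have h7 : d * c * d⁻¹ = c := by
        have h8 : c * d = d * c := by
          calc c * d = (c * d * c⁻¹ * d⁻¹) * (d * c) := by group
            _ = d * c := by rw [h6, one_mul]
        rw [← h8]; group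
      rw [h7]; exact hac
  -- conjugation by all elements
  have hall : ∀ g : G, ∀ c, (c ∈ D ∧ Relation.ReflTransGen (OddAdj D) a c) ↔
      (g * c * g⁻¹ ∈ D ∧ Relation.ReflTransGen (OddAdj D) a (g * c * g⁻¹)) := by
    intro g
    have hg : g ∈ Subgroup.closure D := by rw [h.generates]; trivial
    induction hg using Subgroup.closure_induction with
    | mem d hd =>
      intro c
      constructor
      · rintro ⟨h1, h2⟩
        exact ⟨h.conj_mem c h1 d, hconj d hd c h1 h2⟩
      · rintro ⟨h1, h2⟩
        have h3 := h.conj_mem _ h1 d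
        have h4 := hconj d hd _ h1 h2
        have h6 : d * (d * c * d⁻¹) * d⁻¹ = c := by
          have hdd := sq_of_mem h hd
          rw [inv_of_sq hdd]
          calc d * (d * c * d) * d = (d * d) * c * (d * d) := by group
            _ = c := by rw [hdd, one_mul, mul_one]
        rw [h6] at h3 h4
        exact ⟨h3, h4⟩
    | one => intro c; simp
    | mul x y _ _ ihx ihy =>
      intro c
      rw [ihy c, ihx (y * c * y⁻¹)]
      have : x * (y * c * y⁻¹) * x⁻¹ = x * y * c * (x * y)⁻¹ := by group
      rw [this]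
    | inv x _ ihx =>
      intro c
      rw [ihx (x⁻¹ * c * x⁻¹⁻¹)]
      have : x * (x⁻¹ * c * x⁻¹⁻¹) * x⁻¹ = c := by group
      rw [this]
  obtain ⟨g, hg⟩ := hcl.2.2 a ha b hb
  have h9 := (hall g a).1 ⟨ha, Relation.ReflTransGen.refl⟩
  rw [hg]
  exact h9.2

/-- Restriction of a set of root involutions to a subgroup generated by members. -/
theorem isRootInvolutionSet_restrict {D : Set G} (h : IsRootInvolutionSet D) {S : Set G}
    (hS : S ⊆ D) : IsRootInvolutionSet {y : ↥(Subgroup.closure S) | (y : G) ∈ D} where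
  orderOf_eq := by
    intro d hd
    rw [← Subgroup.orderOf_coe]
    exact h.orderOf_eq _ hd
  generates := by
    rw [eq_top_iff]
    rintro ⟨y, hy⟩ -
    induction hy using Subgroup.closure_induction with
    | mem x hx => exact Subgroup.subset_closure (hS hx)
    | one => exact one_mem _
    | mul x y hx hy ihx ihy => exact mul_mem ihx ihy
    | inv x hx ihx => exact inv_mem ihx
  conj_mem := by
    intro d hd g
    exact h.conj_mem _ hd (g : G)
  pair := by
    intro a ha b hb
    rcases h.pair _ ha _ hb with h1 | h1 | h1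
    · left
      exact Subtype.ext h1
    · right; left
      rw [← Subgroup.orderOf_coe]
      exact h1
    · right; right
      rw [← Subgroup.orderOf_coe]
      exact h1

theorem exists_conj_of_rtg {D : Set G} (h : IsRootInvolutionSet D) {a b : G}
    (h1 : Relation.ReflTransGen (OddAdj D) a b) : ∃ g : G, g * a * g⁻¹ = b := by
  induction h1 with
  | refl => exact ⟨1, by group⟩
  | tail h2 h3 ih =>
    obtain ⟨g, hg⟩ := ih
    obtain ⟨k, hk⟩ := Opp.exists_conj (sq_of_mem h h3.1) (sq_of_mem h h3.2.1) (opp_of_oddAdj h3)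
    refine ⟨k * g, ?_⟩
    rw [← hk, ← hg]; group

theorem opp_coe {H : Subgroup G} {y z : ↥H} : Opp (y : G) (z : G) ↔ Opp y z := by
  unfold Opp
  rw [← Subgroup.coe_mul, Subgroup.orderOf_coe, ne_eq, ne_eq, Subtype.ext_iff]

theorem mem_productPartners {D : Set G} {a b : G} :
    b ∈ productPartners D a ↔ b ∈ D ∧ Commute a b ∧ a ≠ b ∧ a * b ∈ D := by
  constructor
  · rintro ⟨⟨h1, h2, h3⟩, h4⟩
    refine ⟨h1, (show Commute b a from h2).symm, h3.symm, ?_⟩
    rw [← h2]; exact h4
  · rintro ⟨h1, h2, h3, h4⟩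
    exact ⟨⟨h1, h2.symm.eq, h3.symm⟩, by rw [← h2.eq]; exact h4⟩

/-- A pair with product of order 4: the square of the product is a partner of both. -/
theorem order_four_partner {D : Set G} (h : IsRootInvolutionSet D) {a b : G} (ha : a ∈ D)
    (hb : b ∈ D) (h4 : orderOf (a * b) = 4) :
    a * (b * (a * b)) ∈ productPartners D a ∧ a * (b * (a * b)) ∈ productPartners D b := by
  have haa := sq_of_mem h ha
  have hbb := sq_of_mem h hb
  obtain ⟨t, htdef⟩ : ∃ t, t = a * (b * (a * b)) := ⟨_, rfl⟩
  have htD : t ∈ D := by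
    have := mem_of_order_four h ha hb h4
    rw [htdef]
    simpa only [mul_assoc] using this
  have hca : Commute a (b * a * b) := commute_of_order_four haa hbb h4
  have h4' : orderOf (b * a) = 4 := by rw [orderOf_mul_comm' hbb haa]; exact h4
  have hcb : Commute b (a * b * a) := commute_of_order_four hbb haa h4'
  have e1 : t = a * (b * a * b) := by rw [htdef]; group
  have e2 : t = (a * b * a) * b := by rw [htdef]; group
  have hat : Commute a t := by rw [e1]; exact (Commute.refl a).mul_right hca
  have hbt : Commute b t := by rw [e2]; exact hcb.mul_right (Commute.refl b)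
  have ne1 : a ≠ t := by
    intro h1
    have h2 : a * 1 = a * (b * a * b) := by rw [mul_one, ← e1]; exact h1
    have h3 := mul_left_cancel h2
    have h5 : a = 1 := by
      calc a = (b * b) * a * (b * b) := by rw [hbb]; group
        _ = b * (b * a * b) * b := by group
        _ = 1 := by rw [← h3, mul_one, hbb]
    exact ne_one_of_mem h ha h5
  have ne2 : b ≠ t := by
    intro h1
    have h2 : 1 * b = (a * b * a) * b := by rw [one_mul, ← e2]; exact h1
    have h3 := mul_right_cancel h2
    have h5 : b = 1 := by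
      calc b = (a * a) * b * (a * a) := by rw [haa]; group
        _ = a * (a * b * a) * a := by group
        _ = 1 := by rw [← h3, mul_one, haa]
    exact ne_one_of_mem h hb h5
  rw [← htdef]
  refine ⟨mem_productPartners.2 ⟨htD, hat, ne1, ?_⟩, mem_productPartners.2 ⟨htD, hbt, ne2, ?_⟩⟩
  · have : a * t = b * a * b := by
      rw [e1, ← mul_assoc, haa, one_mul]
    rw [this]; exact conj_mem' h ha hb
  · have : b * t = a * b * a := by
      rw [hbt.eq, e2, mul_assoc, hbb, mul_one]
    rw [this]; exact conj_mem' h hb ha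

/-- For opposite `x`, `d` every member of `X_d` is conjugate to `d` in `⟨X_d, x⟩`. -/
theorem partner_conj [Finite G] {D : Set G} (h : IsRootInvolutionSet D)
    (hc : IsConnectedSet (OddAdj D) D) {d x z : G} (hd : d ∈ D) (hx : x ∈ D) (hxd : Opp x d)
    (hz : z ∈ productPartners D d) :
    ∃ g ∈ Subgroup.closure (productPartners D d ∪ {x}), g * d * g⁻¹ = z := by
  obtain ⟨hzD, hdz, hne, hdzD⟩ := mem_productPartners.1 hz
  have hdd := sq_of_mem h hd
  have hzz := sq_of_mem h hzD
  obtain ⟨S, hS⟩ : ∃ S : Set G, S = productPartners D d ∪ {x} := ⟨_, rfl⟩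
  have hSD : S ⊆ D := by
    rw [hS]
    rintro y (hy | hy)
    · exact hy.1.1
    · rw [Set.mem_singleton_iff] at hy; rw [hy]; exact hx
  have hXS : ∀ y ∈ productPartners D d, y ∈ Subgroup.closure S := fun y hy =>
    Subgroup.subset_closure (by rw [hS]; exact Or.inl hy)
  have hxS : x ∈ Subgroup.closure S := Subgroup.subset_closure (by rw [hS]; exact Or.inr rfl)
  have hdS : d ∈ Subgroup.closure S := by
    have h1 : d * z ∈ productPartners D d := by
      refine mem_productPartners.2 ⟨hdzD, (Commute.refl d).mul_right hdz, ?_, ?_⟩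
      · intro h2
        have : d * 1 = d * z := by rw [mul_one]; exact h2
        exact ne_one_of_mem h hzD (mul_left_cancel this).symm
      · rw [← mul_assoc, hdd, one_mul]; exact hzD
    have h2 : d = (d * z) * z⁻¹ := by group
    rw [h2]
    exact mul_mem (hXS _ h1) (inv_mem (hXS _ hz))
  have hR := isRootInvolutionSet_restrict h hSD
  rw [← hS]
  obtain ⟨Dt, hDt⟩ : ∃ Dt : Set ↥(Subgroup.closure S), Dt = {y : ↥(Subgroup.closure S) | (y : G) ∈ D} :=
    ⟨_, rfl⟩
  rw [← hDt] at hR
  have hmem : ∀ y : ↥(Subgroup.closure S), y ∈ Dt ↔ (y : G) ∈ D := by intro y; rw [hDt]; rfl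
  let d' : ↥(Subgroup.closure S) := ⟨d, hdS⟩
  let x' : ↥(Subgroup.closure S) := ⟨x, hxS⟩
  let z' : ↥(Subgroup.closure S) := ⟨z, hXS z hz⟩
  have hd' : d' ∈ Dt := (hmem _).2 hd
  have hx' : x' ∈ Dt := (hmem _).2 hx
  have hz' : z' ∈ Dt := (hmem _).2 hzD
  have hxd' : Opp x' d' := opp_coe.1 hxd
  have hz'X : z' ∈ productPartners Dt d' :=
    mem_productPartners.2 ⟨hz', Subtype.ext hdz.eq, fun h1 => hne (congrArg Subtype.val h1),
      (hmem _).2 hdzD⟩
  have hadj : OddAdj Dt d' x' := oddAdj_symm hR ⟨hx', hd', hxd'.1, hxd'.2⟩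
  obtain ⟨-, hN, -, hWD, -, h6⟩ := S5045.result hR
  have h7 := h6 d' hd' ⟨x', ⟨hx', Relation.ReflTransGen.single hadj⟩, hxd'.1⟩ hz'X
  rcases h7 with h7 | h7
  · obtain ⟨g, hg⟩ := exists_conj_of_rtg hR h7.2
    exact ⟨g, g.2, congrArg Subtype.val hg⟩
  · exfalso
    have hzw := (isolated_iff hR).1 h7
    have hnx : ¬ Opp x z := fun h8 => hzw.2 x' hx' (opp_coe.1 h8)
    have hdX : d ∈ productPartners D z :=
      mem_productPartners.2 ⟨hd, hdz.symm, hne.symm, by rw [← hdz.eq]; exact hdzD⟩
    have hdE : d ∉ sameCommutingClass D z := by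
      intro h8
      have h9 := (sim_iff_commutingMembers h hc hzD hd).1 h8.2
      exact hnx ((h9 x hx).2 hxd)
    obtain ⟨y, hy, hzy⟩ := S5047.result h hc hzD hdX hdE
    have hoy : Opp z y := by
      refine ⟨?_, by rw [hzy]; decide⟩
      intro h8
      rw [h8, sq_of_mem h hy.1, orderOf_one] at hzy
      exact absurd hzy (by decide)
    have hzy3 : (z * y) ^ 3 = 1 := by rw [← hzy, pow_orderOf_eq_one]
    obtain ⟨t, ht⟩ : ∃ t, t = d * (y * (d * y)) := ⟨_, rfl⟩
    have hL := sq_eq_partner h hzD hd hy.1 hdz.symm (by rw [← hdz.eq]; exact hdzD) hy.2 hoy hzy3 ht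
    have htX : t ∈ productPartners D d := by rw [ht]; exact (order_four_partner h hd hy.1 hy.2).1
    have htS := hXS t htX
    let t' : ↥(Subgroup.closure S) := ⟨t, htS⟩
    -- `d` lies in the normal closure
    have hzW : z' ∈ Subgroup.closure {w | IsIsolatedElem (OddAdj Dt) Dt w} :=
      Subgroup.subset_closure h7
    have h8 : z' * (t' * z' * t'⁻¹) ∈ Subgroup.closure {w | IsIsolatedElem (OddAdj Dt) Dt w} :=
      mul_mem hzW (hN.conj_mem z' hzW t')
    have h9 : z' * (t' * z' * t'⁻¹) = d' := by
      apply Subtype.ext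
      show z * (t * z * t⁻¹) = d
      rw [inv_of_sq (sq_of_mem h hL.1)]
      rw [← hL.2.2.2.2.2]
      group
    rw [h9] at h8
    have h10 : d' ∈ (Subgroup.closure {w | IsIsolatedElem (OddAdj Dt) Dt w} : Set _) ∩ Dt := ⟨h8, hd'⟩
    rw [hWD] at h10
    exact ((isolated_iff hR).1 h10).2 x' hx' hxd'

end Cfsg.Agent.H733
end
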